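import Mathlib
import Cfsg.Agent.Lib.ClChev.ClsA
import Cfsg.Agent.Lib.LieBN.Arith

/-!
The order of the unipotent radical of a strongly split (B,N)-pair from an order formula.
-/

set_option autoImplicit false

namespace H62.LB

theorem SBN.card_U {p : ℕ} [Fact p.Prime] {G : Type*} [Group G] [Finite G] (S : SBN p G)
    {q f D N M : ℕ} (hq : q = p ^ f) (h : D * Nat.card G = q ^ N * M) (hD : p.Coprime D)
    (hM : p.Coprime M) : Nat.card S.U = q ^ N := by
  have hp : p.Prime := Fact.out
  have hD0 : D ≠ 0 := by rintro rfl; simp at hD; exact hp.one_lt.ne' hD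
  have hM0 : M ≠ 0 := by rintro rfl; simp at hM; exact hp.one_lt.ne' hM
  have hq0 : q ≠ 0 := by rw [hq]; exact pow_ne_zero _ hp.ne_zero
  have := congrArg (fun x => x.factorization p) h
  simp only [Nat.factorization_mul hD0 Nat.card_pos.ne',
    Nat.factorization_mul (pow_ne_zero _ hq0) hM0, Finsupp.add_apply,
    Nat.factorization_eq_zero_of_not_dvd (hp.coprime_iff_not_dvd.1 hD),
    Nat.factorization_eq_zero_of_not_dvd (hp.coprime_iff_not_dvd.1 hM)] at this
  rw [hq, ← pow_mul, hp.factorization_pow] at this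
  rw [← S.split.card_sylow default, Sylow.card_eq_multiplicity, hq, ← pow_mul]
  congr 1
  simpa using this

theorem exists_card_eq (F : Type*) [Field F] [Fintype F] (p : ℕ) [CharP F p] :
    ∃ f, 0 < f ∧ Fintype.card F = p ^ f := by
  obtain ⟨n, -, hn⟩ := FiniteField.card F p
  exact ⟨n, n.2, hn⟩

end H62.LB
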