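import Mathlib
import Cfsg.Agent.Lib.ClChev.ClsD
import Cfsg.Agent.Lib.Orth12.LowRank2
import Cfsg.Agent.Lib.StChar.DefZero
import Cfsg.Agent.S0169
import Cfsg.Agent.S0187

/-!
The degenerate orthogonal groups: planes, and `O₄⁺(2)`.
-/

set_option autoImplicit false

namespace H62.CC

open Cfsg H12 Matrix

/-- The conclusion of the statements on Steinberg characters. -/
def HasSt (p : ℕ) (X : Type*) [Group X] : Prop := ∃ χ : X → ℂ, IsIrrCharacter X χ ∧
  ∀ P : Sylow p X, χ 1 = Nat.card P ∧ ∀ x : X, x ∈ P → x ≠ 1 → χ x = 0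

theorem hasSt_of_not_dvd {p : ℕ} [Fact p.Prime] {X : Type*} [Group X] [Finite X]
    (h : ¬ p ∣ Nat.card X) : HasSt p X := by
  refine ⟨fun _ => 1, H6.isIrrCharacter_one, fun P => ?_⟩
  have h1 : Nat.card P = 1 := by
    rw [Sylow.card_eq_multiplicity, Nat.factorization_eq_zero_of_not_dvd h, pow_zero]
  exact ⟨by simp [h1], fun x hx h2 =>
    absurd (Subgroup.mem_bot.1 (Subgroup.eq_bot_of_card_eq _ h1 ▸ hx)) h2⟩

theorem hasSt_of_comm {p : ℕ} [Fact p.Prime] {G : Type*} [Group G] [Finite G]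
    (h : ∀ a b : G, a * b = b * a) : HasSt p (G ⧸ Subgroup.center G) :=
  hasSt_of_not_dvd (by
    rw [← Subgroup.index_eq_card, show Subgroup.center G = ⊤ from
      eq_top_iff.2 fun a _ => Subgroup.mem_center_iff.2 fun b => h b a, Subgroup.index_top]
    exact (Fact.out : p.Prime).not_dvd_one)

theorem hasSt_of_dihedral {p : ℕ} [Fact p.Prime] {G : Type*} [Group G] [Finite G] {n : ℕ}
    (e : G ≃* DihedralGroup n) :
    HasSt p (commutator G ⧸ Subgroup.center (commutator G)) := by
  let f : DihedralGroup n →* Multiplicative (ZMod 2) := MonoidHom.mk' (fun g => match g with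
    | .r _ => 1
    | .sr _ => Multiplicative.ofAdd 1) (by
      rintro (a | a) (b | b)
      any_goals rfl
      change 1 = Multiplicative.ofAdd (1 : ZMod 2) * Multiplicative.ofAdd 1
      decide)
  have key : ∀ a : commutator G, ∃ i, e a = .r i := fun a => by
    have h : f (e a) = 1 := Abelianization.commutator_subset_ker (f.comp e.toMonoidHom) a.2
    rcases h' : e a with i | i
    · exact ⟨i, rfl⟩
    · rw [h'] at h; cases h
  refine hasSt_of_comm fun a b => Subtype.ext (e.injective ?_)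
  obtain ⟨i, hi⟩ := key a
  obtain ⟨j, hj⟩ := key b
  simp [hi, hj, add_comm]

theorem hasSt_of_not_comm {X : Type*} [Group X] [Finite X] (h : Nat.card X ∣ 18)
    (h2 : 2 ∣ Nat.card X) (h4 : ¬ IsMulCommutative X) : HasSt 2 X := by
  have : Fact (Nat.Prime 3) := ⟨Nat.prime_three⟩
  obtain ⟨k, hk⟩ := h2
  obtain ⟨j, hj, rfl⟩ := (Nat.dvd_prime_pow Nat.prime_three (m := 2)).1
    (Nat.dvd_of_mul_dvd_mul_left two_pos (hk ▸ h : 2 * k ∣ 2 * 3 ^ 2))
  obtain ⟨T, hT⟩ := Sylow.exists_subgroup_card_pow_prime (G := X) 3 (hk ▸ Dvd.intro_left 2 rfl)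
  have hi : T.index = 2 := Nat.eq_of_mul_eq_mul_left (pow_pos three_pos j)
    (by rw [← hT, T.card_mul_index, hk, hT, mul_comm])
  have := T.normal_of_index_eq_two hi
  have hc : IsMulCommutative T := by
    interval_cases j
    · have := Nat.card_eq_one_iff_unique.1 hT |>.1
      infer_instance
    · have := isCyclic_of_prime_card (p := 3) (by simpa using hT)
      infer_instance
    · exact IsPGroup.isMulCommutative_of_card_eq_prime_sq hT
  obtain ⟨⟨χ, hχ⟩, h1⟩ := not_forall.1 (mt Cfsg.Agent.S0187.result.2 fun h => h4 ⟨⟨h⟩⟩)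
  have h5 : χ 1 = (2 : ℕ) := by
    obtain ⟨n, ρ, hρ, rfl⟩ := hχ
    have h6 := Cfsg.Agent.S0169.result ρ T fun a ha b hb =>
      congrArg Subtype.val (hc.is_comm.comm ⟨a, ha⟩ ⟨b, hb⟩)
    rw [hi] at h6
    rw [ρ.char_one, ((Nat.dvd_prime Nat.prime_two).1 h6).resolve_left fun e => h1 (by
      simp only [ρ.char_one, e, Nat.cast_one])]
  have h6 : ¬ 2 ∣ 3 ^ j := fun e => absurd (Nat.prime_two.dvd_of_dvd_pow e) (by norm_num)
  refine ⟨χ, hχ, fun P => ⟨?_, fun x hx hx1 => eq_zero_of_defect_zero hχ 2 ?_ ?_⟩⟩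
  · rw [Sylow.card_eq_multiplicity, hk, Nat.factorization_mul two_ne_zero (by positivity), h5,
      Finsupp.add_apply, Nat.factorization_eq_zero_of_not_dvd h6, Nat.prime_two.factorization_self]
    rfl
  · simpa [charDegree, h5, hk] using h6
  · obtain ⟨n, hn⟩ := (IsPGroup.iff_orderOf.1 P.2) ⟨x, hx⟩
    rw [Subgroup.orderOf_mk] at hn
    exact hn ▸ dvd_pow_self 2 fun e => hx1 (by simpa [e] using hn)

theorem hasSt_of_dvd {G : Type*} [Group G] [Finite G] (h : Nat.card G ∣ 18) :
    HasSt 2 (G ⧸ Subgroup.center G) := by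
  by_cases h2 : 2 ∣ Nat.card (G ⧸ Subgroup.center G)
  swap
  · exact hasSt_of_not_dvd h2
  have hc := Subgroup.card_eq_card_quotient_mul_card_subgroup (Subgroup.center G)
  have h3 : ∀ z ∈ Subgroup.center G, z * z = 1 → z = 1 := fun z hz h1 => by
    by_contra h0
    have h4 := Subgroup.orderOf_dvd_natCard _ hz
    rw [orderOf_eq_prime (by rwa [sq]) h0] at h4
    exact absurd ((hc ▸ Nat.mul_dvd_mul h2 h4).trans h) (by norm_num)
  have h4 : ¬ IsMulCommutative (G ⧸ Subgroup.center G) := fun h4 => by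
    obtain ⟨t, ht⟩ := exists_prime_orderOf_dvd_card' (G := G) 2 (hc ▸ h2.mul_right _)
    have ht2 : t * t = 1 := by rw [← sq, ← ht, pow_orderOf_eq_one]
    have h5 : t ∈ Subgroup.center G := Subgroup.mem_center_iff.2 fun g => by
      have h6 : g * t * g⁻¹ * t ∈ Subgroup.center G := by
        rw [← QuotientGroup.eq_one_iff, QuotientGroup.mk_mul, QuotientGroup.mk_mul,
          QuotientGroup.mk_mul, h4.is_comm.comm (g : G ⧸ _), QuotientGroup.mk_inv,
          mul_inv_cancel_right, ← QuotientGroup.mk_mul, ht2, QuotientGroup.mk_one]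
      have h7 := h3 _ h6 (by
        have e := Subgroup.mem_center_iff.1 h6 t
        calc g * t * g⁻¹ * t * (g * t * g⁻¹ * t) = g * t * g⁻¹ * (t * (g * t * g⁻¹ * t)) := by group
          _ = g * (t * t) * g⁻¹ * (t * t) := by rw [e]; group
          _ = 1 := by simp [ht2])
      rw [mul_eq_one_iff_eq_inv, inv_eq_of_mul_eq_one_right ht2, mul_inv_eq_iff_eq_mul] at h7
      exact h7
    rw [h3 t h5 ht2, orderOf_one] at ht
    cases ht
  exact hasSt_of_not_comm ((hc ▸ Dvd.intro _ rfl).trans h) h2 h4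

theorem card_commutator_dvd {G : Type*} [Group G] [Finite G] (h : Nat.card G = 72)
    {H N : Subgroup G} (hH : Nat.card H = 36) (hN : Nat.card N = 9)
    (hn : H ≤ Subgroup.normalizer (N : Set G)) : Nat.card (commutator G) ∣ 18 := by
  have : Fact (Nat.Prime 3) := ⟨Nat.prime_three⟩
  let T : Sylow 3 G := Sylow.ofCard N (by
    rw [hN, h, show 72 = 3 ^ 2 * 8 by rfl, Nat.factorization_mul (by norm_num) (by norm_num),
      Nat.prime_three.factorization_pow]
    simp [Nat.factorization_eq_zero_of_not_dvd (show ¬ 3 ∣ 8 by norm_num)])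
  have h1 : (Subgroup.normalizer (N : Set G)).index ∣ 2 := by
    have := H.card_mul_index
    rw [hH, h] at this
    exact (show H.index = 2 by omega) ▸ Subgroup.index_dvd_of_le hn
  have h2 := card_sylow_modEq_one 3 G
  rw [T.card_eq_index_normalizer] at h2
  have : N.Normal := Subgroup.normalizer_eq_top_iff.1 (Subgroup.index_eq_one.1
    (((Nat.dvd_prime Nat.prime_two).1 h1).resolve_right fun e => by
      rw [show (T : Set G) = N from rfl, e] at h2; cases h2))
  have h3 : Nat.card (G ⧸ N) = 2 ^ 3 := by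
    have := N.card_eq_card_quotient_mul_card_subgroup
    rw [h, hN] at this
    omega
  have : Nontrivial (G ⧸ N) := Finite.one_lt_card_iff_nontrivial.1 (by omega)
  have h4 := IsPGroup.of_card h3
  have := h4.center_nontrivial
  obtain ⟨z, hz⟩ := exists_prime_orderOf_dvd_card' (G := Subgroup.center (G ⧸ N)) 2
    ((h4.to_subgroup _).card_eq_or_dvd.resolve_left Finite.one_lt_card.ne')
  have : (Subgroup.zpowers z.1).Normal := ⟨fun a ha g => by
    rwa [Subgroup.mem_center_iff.1 (Subgroup.zpowers_le.2 z.2 ha), mul_inv_cancel_right]⟩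
  have h5 : ((Subgroup.zpowers z.1).comap (QuotientGroup.mk' N)).index = 2 ^ 2 := by
    have := (Subgroup.zpowers z.1).card_mul_index
    rw [Nat.card_zpowers, Subgroup.orderOf_coe, hz] at this
    rw [Subgroup.index_comap_of_surjective _ (QuotientGroup.mk'_surjective N)]
    omega
  have h6 := ((Subgroup.zpowers z.1).comap (QuotientGroup.mk' N)).card_mul_index
  refine (Subgroup.card_dvd_of_le (Subgroup.Normal.quotient_commutative_iff_commutator_le.1
    (IsPGroup.isMulCommutative_of_card_eq_prime_sq h5))).trans (dvd_of_eq ?_)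
  rw [h5] at h6
  omega

theorem card_omega_four_two {F : Type*} [Field F] [Fintype F] (hF : Fintype.card F = 2) :
    Nat.card (Om (QPlus F 2)) ∣ 18 := by
  have : Fact (Nat.Prime 3) := ⟨Nat.prime_three⟩
  have := finite_O (QPlus F 2)
  have hF' : Nat.card F = 2 := Nat.card_eq_fintype_card.trans hF
  obtain ⟨φ, hφ⟩ := exists_rep4 (F := F)
  have hs : Function.Surjective (emb4 (F := F)) := fun X =>
    ⟨Sum.elim ![X 0 0, -X 0 1] ![X 1 1, X 1 0], by
      ext i j; fin_cases i <;> fin_cases j <;> simp [emb4]⟩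
  have hi : Function.Injective φ := (injective_iff_map_eq_one φ).2 fun g hg => by
    have h1 : ∀ X, g.1.1 * X * g.2.1ᵀ = X := fun X => by
      obtain ⟨v, rfl⟩ := hs X
      rw [← hφ, hg]; rfl
    have h2 : ∀ a : F, a ≠ 0 → a = 1 := fun a ha => by
      simpa [hF] using FiniteField.pow_card_sub_one_eq_one a ha
    have h3 : ∀ i j k l, g.1.1 i j * g.2.1 k l = if j = i ∧ l = k then 1 else 0 := fun i j k l => by
      simpa [Matrix.mul_apply, single_apply, ite_and] using congrFun (congrFun (h1 (single j l 1)) i) k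
    have h4 : ∀ i k, g.1.1 i i = 1 ∧ g.2.1 k k = 1 := fun i k => by
      have := h3 i i k k
      simp only [and_self, if_true] at this
      exact ⟨h2 _ (left_ne_zero_of_mul_eq_one this), h2 _ (right_ne_zero_of_mul_eq_one this)⟩
    refine Prod.ext (Subtype.ext ?_) (Subtype.ext ?_) <;> ext i j
    · simpa [(h4 0 0).2, one_apply, eq_comm] using h3 i j 0 0
    · simpa [(h4 0 0).1, one_apply, eq_comm] using h3 0 0 i j
  have h6 : Nat.card (SpecialLinearGroup (Fin 2) F) = 6 := by rw [H10.card_SL_two, hF']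
  obtain ⟨T, hT⟩ := Sylow.exists_subgroup_card_pow_prime (G := SpecialLinearGroup (Fin 2) F) 3
    (n := 1) (by rw [h6]; norm_num)
  have := T.normal_of_index_eq_two (by have := T.card_mul_index; rw [hT, h6] at this; omega)
  refine card_commutator_dvd (H := φ.range) (N := (T.prod T).map φ) ?_ ?_ ?_ ?_
  · have := card_O_QPlus (F := F) 1
    rw [hF'] at this
    norm_num at this
    exact_mod_cast this
  · rw [← Nat.card_congr (MonoidHom.ofInjective hi).toEquiv, Nat.card_prod, h6]
  · rw [Subgroup.card_map_of_injective hi, Nat.card_congr (T.prodEquiv T).toEquiv, Nat.card_prod, hT]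
    rfl
  · rw [φ.range_eq_map, ← Subgroup.normalizer_eq_top (T.prod T)]
    exact Subgroup.le_normalizer_map φ

variable {F : Type*} [Field F] [Fintype F] (p : ℕ) [Fact p.Prime] [CharP F p]

theorem hasSt_plus {m : ℕ} (hm : 1 ≤ m) : HasSt p (POmega F (quadFormPlus m F)) := by
  by_cases h1 : m = 1
  · subst h1
    obtain ⟨e⟩ := dihedral_hyp (Q := hypN 0 (0 : QuadraticForm F (Fin 0 → F)))
    exact hasSt_of_dihedral ((plusIso F 1).trans ((congrO _ (hypN_plusEquiv 1)).trans
      ((congrO _ (hyp_hypSucc 0)).trans e)))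
  obtain ⟨k, rfl⟩ : ∃ k, m = k + 2 := ⟨m - 2, by omega⟩
  by_cases h : Fintype.card F ≠ 2 ∨ k ≠ 0
  · exact (sbn_plus p (good_of_card (nondeg_QPlus _)
      (h.imp_right fun h => by rw [finrank_plus]; omega))).some.exists_stein_quot
  push Not at h
  obtain ⟨h, rfl⟩ := h
  obtain ⟨n, hp, hn⟩ := FiniteField.card F p
  obtain rfl : p = 2 := (Nat.prime_dvd_prime_iff_eq hp Nat.prime_two).1
    (h ▸ hn ▸ dvd_pow_self p n.ne_zero)
  exact hasSt_of_dvd (Nat.card_congr (commCongr (plusIso F 2)).toEquiv ▸ card_omega_four_two h)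

theorem hasSt_minus {a b : F} (hab : Aniso a b) (m : ℕ) :
    HasSt p (POmega F (quadFormMinus m F a b)) := by
  rcases m with _ | k
  · obtain ⟨e⟩ := hab.dihedral_binForm
    exact hasSt_of_dihedral ((minusIso 0 a b).trans ((congrO _ (hypN_minusEquiv 0 a b)).trans
      ((congrO _ Q_hypZero).trans e)))
  · exact (sbn_minus p hab k).some.exists_stein_quot

end H62.CC
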